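import Mathlib
import Cfsg.Agent.S0415

set_option autoImplicit false

namespace Cfsg.Agent.Lib.Helper69.HallFinal

open MulAction

/-- Order of a 4-transitive group: `|G| = n(n-1)(n-2)(n-3) * |G_x|`. -/
theorem card_eq {α : Type*} [Fintype α] [DecidableEq α] (G : Subgroup (Equiv.Perm α))
    (hG : MulAction.IsMultiplyPretransitive G α 4) (x : Fin 4 ↪ α) :
    Nat.card G = (Fintype.card α).descFactorial 4 * Nat.card (MulAction.stabilizer G x) := by
  classical
  have h1 := MulAction.card_orbit_mul_card_stabilizer_eq_card_group (↥G) x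
  have h3 : orbit (↥G) x = Set.univ :=
    Set.eq_univ_of_forall fun y => by obtain ⟨g, hg⟩ := hG.exists_smul_eq x y; exact ⟨g, hg⟩
  have h2 : Nat.card (orbit (↥G) x) = (Fintype.card α).descFactorial 4 := by
    rw [h3, Nat.card_congr (Equiv.Set.univ _),
      Nat.card_eq_fintype_card, Fintype.card_embedding_eq, Fintype.card_fin]
  rw [← Nat.card_eq_fintype_card, ← Nat.card_eq_fintype_card, ← Nat.card_eq_fintype_card] at h1
  exact h1.symm.trans (congrArg (· * Nat.card (MulAction.stabilizer G x)) h2)

/-- All four-point stabilizers have the same order. -/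
theorem card_stab_eq {α : Type*} [Fintype α] [DecidableEq α] (G : Subgroup (Equiv.Perm α))
    (hG : MulAction.IsMultiplyPretransitive G α 4) (x y : Fin 4 ↪ α) :
    Nat.card (MulAction.stabilizer G y) = Nat.card (MulAction.stabilizer G x) := by
  have h1 := card_eq G hG x
  have h2 := card_eq G hG y
  have h4 : 4 ≤ Fintype.card α := by
    have := Fintype.card_le_of_embedding x
    simpa using this
  have hpos : 0 < (Fintype.card α).descFactorial 4 := Nat.descFactorial_pos.mpr h4 |>.bot_lt
  rw [h1] at h2
  exact (Nat.eq_of_mul_eq_mul_left hpos h2).symm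

theorem eq_top_of_card {α : Type*} [Fintype α] [DecidableEq α] (G : Subgroup (Equiv.Perm α))
    (h : Nat.card G = (Fintype.card α).factorial) : G = ⊤ := by
  apply Subgroup.eq_top_of_card_eq
  rw [h, Nat.card_eq_fintype_card, Fintype.card_perm]

theorem eq_alt_of_card {α : Type*} [Fintype α] [DecidableEq α] (G : Subgroup (Equiv.Perm α))
    (h : 2 * Nat.card G = (Fintype.card α).factorial) : G = alternatingGroup α := by
  apply Equiv.Perm.eq_alternatingGroup_of_index_eq_two
  have h1 := G.card_mul_index
  rw [Nat.card_eq_fintype_card (α := Equiv.Perm α), Fintype.card_perm, ← h] at h1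
  have hpos : 0 < Nat.card G := Nat.card_pos
  have : Nat.card G * G.index = Nat.card G * 2 := by rw [h1]; ring
  exact Nat.eq_of_mul_eq_mul_left hpos this

theorem final {α : Type*} [Fintype α] [DecidableEq α] (G : Subgroup (Equiv.Perm α))
    (hG : MulAction.IsMultiplyPretransitive G α 4) (x : Fin 4 ↪ α)
    (hodd : Odd (Nat.card (MulAction.stabilizer G x)))
    (hmain : Fintype.card α ≤ 7 ∨ Nat.card (MulAction.stabilizer G x) = 1) :
    ((Fintype.card α = 4 ∨ Fintype.card α = 5) ∧ G = ⊤) ∨
    ((Fintype.card α = 6 ∨ Fintype.card α = 7) ∧ G = alternatingGroup α) ∨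
    (Fintype.card α = 11 ∧ Nat.card G = 7920) := by
  classical
  have h4 : 4 ≤ Fintype.card α := by
    have := Fintype.card_le_of_embedding x
    simpa using this
  have hcard := card_eq G hG x
  -- the sharp case
  have hsharp : Nat.card (MulAction.stabilizer G x) = 1 →
      Fintype.card α = 4 ∨ Fintype.card α = 5 ∨ Fintype.card α = 6 ∨ Fintype.card α = 11 := by
    intro h1
    haveI : IsMultiplyPretransitive G α 4 := hG
    apply Cfsg.Agent.S0415.result G h4
    intro y
    have := card_stab_eq G hG x y
    rw [h1] at this
    exact (Subgroup.card_eq_one).mp this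
  have hdvd : Nat.card G ∣ (Fintype.card α).factorial := by
    have := Subgroup.card_subgroup_dvd_card G
    rwa [Nat.card_eq_fintype_card (α := Equiv.Perm α), Fintype.card_perm] at this
  by_cases h1 : Nat.card (MulAction.stabilizer G x) = 1
  · rw [h1, mul_one] at hcard
    rcases hsharp h1 with h | h | h | h
    · left
      refine ⟨Or.inl h, eq_top_of_card G ?_⟩
      rw [hcard, h]; decide
    · left
      refine ⟨Or.inr h, eq_top_of_card G ?_⟩
      rw [hcard, h]; decide
    · right; left
      refine ⟨Or.inl h, eq_alt_of_card G ?_⟩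
      rw [hcard, h]; decide
    · right; right
      refine ⟨h, ?_⟩
      rw [hcard, h]; decide
  · have h7 : Fintype.card α ≤ 7 := by
      rcases hmain with h | h
      · exact h
      · exact absurd h h1
    rw [hcard] at hdvd
    have hn : Fintype.card α = 4 ∨ Fintype.card α = 5 ∨ Fintype.card α = 6 ∨ Fintype.card α = 7 := by
      omega
    have hH : ∀ m : ℕ, Odd m → m ≠ 1 → m ∣ 6 → m = 3 := by
      intro m hm hm1 hm6
      have := Nat.le_of_dvd (by norm_num) hm6
      interval_cases m <;> simp_all (config := {decide := true})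
    rcases hn with h | h | h | h
    · exfalso
      rw [h] at hdvd
      have : Nat.card (MulAction.stabilizer G x) ∣ 1 := by
        have h24 : Nat.descFactorial 4 4 = 24 := by decide
        have h24' : Nat.factorial 4 = 24 * 1 := by decide
        rw [h24, h24'] at hdvd
        exact Nat.dvd_of_mul_dvd_mul_left (by norm_num) hdvd
      exact h1 (Nat.dvd_one.mp this)
    · exfalso
      rw [h] at hdvd
      have : Nat.card (MulAction.stabilizer G x) ∣ 1 := by
        have h24 : Nat.descFactorial 5 4 = 120 := by decide
        have h24' : Nat.factorial 5 = 120 * 1 := by decide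
        rw [h24, h24'] at hdvd
        exact Nat.dvd_of_mul_dvd_mul_left (by norm_num) hdvd
      exact h1 (Nat.dvd_one.mp this)
    · exfalso
      rw [h] at hdvd
      have h2 : Nat.card (MulAction.stabilizer G x) ∣ 2 := by
        have h24 : Nat.descFactorial 6 4 = 360 := by decide
        have h24' : Nat.factorial 6 = 360 * 2 := by decide
        rw [h24, h24'] at hdvd
        exact Nat.dvd_of_mul_dvd_mul_left (by norm_num) hdvd
      have h6 : Nat.card (MulAction.stabilizer G x) ∣ 6 := h2.trans (by norm_num)
      have := hH _ hodd h1 h6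
      rw [this] at h2
      omega
    · right; left
      rw [h] at hdvd
      have h6 : Nat.card (MulAction.stabilizer G x) ∣ 6 := by
        have h24 : Nat.descFactorial 7 4 = 840 := by decide
        have h24' : Nat.factorial 7 = 840 * 6 := by decide
        rw [h24, h24'] at hdvd
        exact Nat.dvd_of_mul_dvd_mul_left (by norm_num) hdvd
      have h3 := hH _ hodd h1 h6
      refine ⟨Or.inr h, eq_alt_of_card G ?_⟩
      rw [hcard, h, h3]; decide

end Cfsg.Agent.Lib.Helper69.HallFinal
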