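import Mathlib
import Cfsg.Agent.Lib.Helper17.Simple
import Cfsg.Agent.Lib.Helper17.PrimeSylow
import Cfsg.Agent.Lib.Helper17.Involution
import Cfsg.Agent.Lib.Helper17.Small
import Cfsg.Agent.Lib.Helper17.Count
import Cfsg.Agent.S0989
import Cfsg.Agent.Lib.Helper69.Syl22B

set_option autoImplicit false

/-!
# Involutions centralizing a Sylow subgroup of prime order

Tools for excluding simple groups of a given order: the action on the Sylow `p`-subgroups
(`|P| = p`), fixed points of elements of `C(P)`, and permutation arguments for small index.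
-/

namespace Cfsg.Agent.Lib.Helper69.InvFix

open Cfsg.Agent.Lib.Helper17 Cfsg.Agent.Lib.Helper69.Syl22

section Perm
variable {Ω : Type*} [Fintype Ω] [DecidableEq Ω]

/-- fixed points of `W` (of prime order `q`) on a `W`-invariant set -/
theorem inv_fix_mod (q : ℕ) [Fact q.Prime] (W : Equiv.Perm Ω) (hWq : W ^ q = 1)
    (s : Ω → Prop) [DecidablePred s] (hs : ∀ ω, s (W ω) ↔ s ω) :
    (Finset.univ.filter (fun ω => s ω ∧ W ω = ω)).card % q =
      (Finset.univ.filter (fun ω => s ω)).card % q := by
  set σ : Equiv.Perm {ω // s ω} := W.subtypePerm hs with hσdef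
  have hσ : σ ^ q ^ 1 = 1 := by
    rw [pow_one, hσdef, Equiv.Perm.subtypePerm_pow]
    ext ⟨ω, hω⟩
    simp [hWq]
  have hmod := Equiv.Perm.card_compl_support_modEq (p := q) (n := 1) hσ
  have hs' : Finset.univ.filter (fun ω => s ω ∧ W ω = ω) =
      σ.supportᶜ.map (Function.Embedding.subtype _) := by
    ext ω
    simp only [Finset.mem_filter, Finset.mem_univ, true_and, Finset.mem_map, Finset.mem_compl,
      Equiv.Perm.mem_support, not_not, Function.Embedding.coe_subtype, Subtype.exists,
      exists_and_right, exists_eq_right]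
    constructor
    · rintro ⟨h1, h2⟩
      exact ⟨h1, Subtype.ext h2⟩
    · rintro ⟨h1, h2⟩
      exact ⟨h1, congrArg Subtype.val h2⟩
  rw [hs', Finset.card_map]
  rw [Fintype.card_subtype] at hmod
  exact hmod

/-- an involution commuting with a permutation of odd prime order `p` moving exactly `p`
points fixes all the moved points -/
theorem fix_of_commute_pcycle (p : ℕ) [Fact p.Prime] (hp2 : p ≠ 2) (X Z : Equiv.Perm Ω)
    (hXp : X ^ p = 1) (hZ2 : Z ^ 2 = 1) (hc : Commute Z X)
    (hM : (Finset.univ.filter (fun ω => X ω ≠ ω)).card = p) : ∀ ω, X ω ≠ ω → Z ω = ω := by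
  have hpp : p.Prime := Fact.out
  haveI : Fact (Nat.Prime 2) := ⟨Nat.prime_two⟩
  have hZX : ∀ ω, Z (X ω) = X (Z ω) := fun ω => by
    have := congrArg (fun σ : Equiv.Perm Ω => σ ω) hc.eq
    simpa using this
  have hinv : ∀ ω, X (Z ω) ≠ Z ω ↔ X ω ≠ ω := fun ω => by
    rw [← hZX]; exact Z.injective.ne_iff
  have h1 := inv_fix_mod 2 Z hZ2 (fun ω => X ω ≠ ω) hinv
  rw [hM] at h1
  have hodd : p % 2 = 1 := by
    rcases hpp.eq_two_or_odd with h | h
    · exact absurd h hp2
    · exact h
  rw [hodd] at h1
  have hne : (Finset.univ.filter (fun ω => X ω ≠ ω ∧ Z ω = ω)).Nonempty := by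
    rw [Finset.nonempty_iff_ne_empty]
    intro h
    rw [h] at h1
    simp at h1
  obtain ⟨y, hy⟩ := hne
  simp only [Finset.mem_filter, Finset.mem_univ, true_and] at hy
  obtain ⟨hXy, hZy⟩ := hy
  -- the orbit of `y`
  have hXpow : ∀ i : ℕ, X ((X ^ i) y) ≠ (X ^ i) y := fun i => by
    have : X ((X ^ i) y) = (X ^ i) (X y) := by
      rw [← Equiv.Perm.mul_apply, ← Equiv.Perm.mul_apply, ← pow_succ', ← pow_succ]
    rw [this]
    exact (X ^ i).injective.ne hXy
  have hinj : Set.InjOn (fun i : ℕ => (X ^ i) y) (Finset.range p : Set ℕ) := by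
    have key : ∀ i j : ℕ, i < p → j < p → i ≤ j → (X ^ i) y = (X ^ j) y → i = j := by
      intro i j hi hj hij h
      have h2 : (X ^ (j - i)) y = y := by
        have : X ^ j = X ^ i * X ^ (j - i) := by rw [← pow_add]; congr 1; omega
        rw [this, Equiv.Perm.mul_apply] at h
        exact ((X ^ i).injective h).symm
      have h3 := dvd_of_pow_fix p hpp X hXp y hXy (j - i) h2
      have h4 : j - i < p := by omega
      have h5 : j - i = 0 := Nat.eq_zero_of_dvd_of_lt h3 h4
      omega
    intro i hi j hj h
    simp only [Finset.coe_range, Set.mem_Iio] at hi hj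
    rcases le_total i j with hij | hij
    · exact key i j hi hj hij h
    · exact (key j i hj hi hij h.symm).symm
  have himg : (Finset.range p).image (fun i : ℕ => (X ^ i) y) =
      Finset.univ.filter (fun ω => X ω ≠ ω) := by
    apply Finset.eq_of_subset_of_card_le
    · intro ω hω
      simp only [Finset.mem_image, Finset.mem_range] at hω
      obtain ⟨i, -, rfl⟩ := hω
      simp only [Finset.mem_filter, Finset.mem_univ, true_and]
      exact hXpow i
    · rw [Finset.card_image_of_injOn hinj, Finset.card_range, hM]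
  intro ω hω
  have hmem : ω ∈ (Finset.range p).image (fun i : ℕ => (X ^ i) y) := by
    rw [himg]; simp [hω]
  simp only [Finset.mem_image, Finset.mem_range] at hmem
  obtain ⟨i, -, rfl⟩ := hmem
  have hcomm : Commute Z (X ^ i) := hc.pow_right i
  have := congrArg (fun σ : Equiv.Perm Ω => σ y) hcomm.eq
  simp only [Equiv.Perm.mul_apply] at this
  rw [this, hZy]

end Perm

variable {G : Type*} [Group G] [Finite G]

/-- number of fixed points as `fixCard` -/
theorem ncard_fixed_eq_fixCard {X : Type*} [Fintype X] [DecidableEq X] [MulAction G X] (t : G) :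
    Set.ncard {x : X | t • x = x} = fixCard (MulAction.toPermHom G X t) := by
  rw [Set.ncard_eq_toFinset_card', fixCard]
  congr 1
  ext x
  simp

/-- the action of a simple group on its Sylow `p`-subgroups is faithful when `n_p ≠ 1` -/
theorem toPermHom_sylow_injective [IsSimpleGroup G] (p : ℕ) [Fact p.Prime]
    (h : Nat.card (Sylow p G) ≠ 1) :
    Function.Injective (MulAction.toPermHom G (Sylow p G)) := by
  obtain ⟨P⟩ := (Sylow.nonempty : Nonempty (Sylow p G))
  rw [← MonoidHom.ker_eq_bot_iff]
  rcases (MonoidHom.normal_ker (MulAction.toPermHom G (Sylow p G))).eq_bot_or_eq_top with h1 | h1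
  · exact h1
  · exfalso
    apply normalizer_sylow_ne_top p P h
    rw [eq_top_iff]
    intro g _
    have hg : g ∈ (MulAction.toPermHom G (Sylow p G)).ker := h1 ▸ Subgroup.mem_top g
    rw [MonoidHom.mem_ker] at hg
    have h2 : g • P = P := by
      have := congrArg (fun σ : Equiv.Perm (Sylow p G) => σ P) hg
      simpa using this
    exact Sylow.smul_eq_iff_mem_normalizer.mp h2

/-- `n_p = p + 1` forces `|N(P)|` to divide `p (p - 1)` in a simple group -/
theorem card_normalizer_dvd_of_card_sylow_succ [IsSimpleGroup G] (p : ℕ) [Fact p.Prime]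
    (P : Sylow p G) (hP : Nat.card (P : Subgroup G) = p) (hn : Nat.card (Sylow p G) = p + 1) :
    Nat.card (Subgroup.normalizer ((P : Subgroup G) : Set G)) ∣ p * (p - 1) := by
  classical
  have hpp : p.Prime := Fact.out
  have : Fintype (Sylow p G) := Fintype.ofFinite _
  have hcard : Fintype.card (Sylow p G) = p + 1 := by
    rw [← hn, Nat.card_eq_fintype_card]
  set φ := MulAction.toPermHom G (Sylow p G) with hφ
  have hinj : Function.Injective φ :=
    toPermHom_sylow_injective p (by rw [hn]; have := hpp.pos; omega)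
  obtain ⟨Q, hQ⟩ := (P.2.map φ).exists_le_sylow
  have hcardQ : Nat.card (Q : Subgroup (Equiv.Perm (Sylow p G))) = p := by
    rw [Sylow.card_eq_multiplicity, Nat.card_eq_fintype_card, Fintype.card_perm,
      Cfsg.Agent.S0989.factorization_factorial_eq_one p _ hpp (by rw [hcard]; omega)
        (by rw [hcard]; have := hpp.two_le; omega), pow_one]
  have hcardP' : Nat.card ((P : Subgroup G).map φ) = Nat.card (P : Subgroup G) :=
    Subgroup.card_map_of_injective hinj
  have hPQ : (P : Subgroup G).map φ = (Q : Subgroup (Equiv.Perm (Sylow p G))) := by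
    apply Subgroup.eq_of_le_of_card_ge hQ
    rw [hcardQ, hcardP', hP]
  have h1 : (Subgroup.normalizer ((P : Subgroup G) : Set G)).map φ ≤
      Subgroup.normalizer ((Q : Subgroup (Equiv.Perm (Sylow p G))) :
        Set (Equiv.Perm (Sylow p G))) := by
    rw [← hPQ]
    exact Subgroup.le_normalizer_map φ
  have h2 := Subgroup.card_dvd_of_le h1
  rw [Subgroup.card_map_of_injective hinj,
    Cfsg.Agent.S0989.result p (Or.inr hcard) Q] at h2
  exact h2

/-- a non-identity element of a Sylow subgroup `P` of prime order normalizes no other Sylow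
subgroup -/
theorem smul_eq_iff_of_mem (p : ℕ) [Fact p.Prime] (P Q : Sylow p G)
    (hP : Nat.card (P : Subgroup G) = p) (g : G) (hg : g ∈ (P : Subgroup G)) (hg1 : g ≠ 1) :
    g • Q = Q ↔ Q = P := by
  have hpp : p.Prime := Fact.out
  constructor
  · intro h
    by_contra hne
    have h1 : g ∈ Subgroup.normalizer ((Q : Subgroup G) : Set G) :=
      Sylow.smul_eq_iff_mem_normalizer.mp h
    have h2 : orderOf g = p := orderOf_eq_of_mem_of_card_prime hpp (P : Subgroup G) hP g hg hg1
    have h3 : g ∈ (Q : Subgroup G) :=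
      mem_sylow_of_mem_normalizer_of_orderOf p Q g h1 1 (by rw [h2, pow_one])
    have h4 := inf_eq_bot_of_sylow_prime p P Q hP (fun h => hne h.symm)
    have h5 : g ∈ (P : Subgroup G) ⊓ (Q : Subgroup G) := ⟨hg, h3⟩
    rw [h4, Subgroup.mem_bot] at h5
    exact hg1 h5
  · rintro rfl
    exact Sylow.smul_eq_iff_mem_normalizer.mpr (Subgroup.le_normalizer hg)

/-- a Sylow subgroup of prime order has a non-identity element -/
theorem exists_mem_ne_one (p : ℕ) [Fact p.Prime] (P : Subgroup G)
    (hP : Nat.card P = p) : ∃ g ∈ P, g ≠ 1 := by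
  have hpp : p.Prime := Fact.out
  by_contra h
  have h' : ∀ g ∈ P, g = 1 := fun g hg => by
    by_contra hg1
    exact h ⟨g, hg, hg1⟩
  have : P = ⊥ := (Subgroup.eq_bot_iff_forall P).mpr h'
  rw [this, Subgroup.card_bot] at hP
  exact hpp.one_lt.ne hP

/-- an element centralizing a Sylow subgroup of prime order `p` normalizes `≡ 1` mod `p`
Sylow `p`-subgroups -/
theorem ncard_fixed_mod (p : ℕ) [Fact p.Prime] (P : Sylow p G)
    (hP : Nat.card (P : Subgroup G) = p) (t : G)
    (ht : t ∈ Subgroup.centralizer ((P : Subgroup G) : Set G)) :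
    Set.ncard {Q : Sylow p G | t • Q = Q} % p = 1 := by
  classical
  have hpp : p.Prime := Fact.out
  have : Fintype (Sylow p G) := Fintype.ofFinite _
  obtain ⟨g, hg, hg1⟩ := exists_mem_ne_one p (P : Subgroup G) hP
  have hord : orderOf g = p := orderOf_eq_of_mem_of_card_prime hpp (P : Subgroup G) hP g hg hg1
  rw [ncard_fixed_eq_fixCard]
  apply fixCard_mod_of_commute p (MulAction.toPermHom G (Sylow p G) g) _ P
  · rw [← map_pow, ← hord, pow_orderOf_eq_one, map_one]
  · intro Q
    exact smul_eq_iff_of_mem p P Q hP g hg hg1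
  · have : t * g = g * t := (Subgroup.mem_centralizer_iff.mp ht g hg).symm
    exact (Commute.map (show Commute t g from this) _)

/-- Sylow's theorem inside a subgroup `H ⊇ P`: `|H : N_H(P)| ≡ 1` mod `p` -/
theorem relIndex_normalizer_mod (p : ℕ) [Fact p.Prime] (P : Sylow p G) (H : Subgroup G)
    (hPH : (P : Subgroup G) ≤ H) :
    (Subgroup.normalizer ((P : Subgroup G) : Set G)).relIndex H % p = 1 := by
  have hpp : p.Prime := Fact.out
  have h1 := card_sylow_modEq_one p H
  have h2 := (P.subtype hPH).card_eq_index_normalizer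
  have h3 : Subgroup.normalizer (((P.subtype hPH : Sylow p H) : Subgroup H) : Set H) =
      (Subgroup.normalizer ((P : Subgroup G) : Set G)).subgroupOf H := by
    rw [Sylow.coe_subtype, Subgroup.subgroupOf_normalizer_eq hPH]
  have h2' : Nat.card (Sylow p ↥H) =
      ((Subgroup.normalizer ((P : Subgroup G) : Set G)).subgroupOf H).index := by
    rw [← h3]; exact h2
  rw [Subgroup.relIndex, ← h2']
  have := h1
  unfold Nat.ModEq at this
  rw [this]
  exact Nat.mod_eq_of_lt hpp.one_lt

/-- `|H : N_H(P)| * |H ∩ N(P)| = |H|` -/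
theorem relIndex_mul_card_inf (K H : Subgroup G) :
    K.relIndex H * Nat.card (H ⊓ K : Subgroup G) = Nat.card H := by
  have h1 : (K.subgroupOf H).index * Nat.card (K.subgroupOf H) = Nat.card H :=
    Subgroup.index_mul_card _
  have h2 : Nat.card (K.subgroupOf H) = Nat.card (H ⊓ K : Subgroup G) := by
    rw [← Subgroup.inf_subgroupOf_left]
    exact Nat.card_congr (Subgroup.subgroupOfEquivOfLe inf_le_left).toEquiv
  rw [Subgroup.relIndex, ← h2]; exact h1

/-- the conjugates under `C(t)` of a Sylow subgroup `P` centralized by `t` are fixed by `t` -/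
theorem relIndex_normalizer_le_fixed (p : ℕ) [Fact p.Prime] (P : Sylow p G) (t : G)
    (ht : t ∈ Subgroup.centralizer ((P : Subgroup G) : Set G)) :
    (Subgroup.normalizer ((P : Subgroup G) : Set G)).relIndex
        (Subgroup.centralizer ({t} : Set G)) ≤
      Set.ncard {Q : Sylow p G | t • Q = Q} := by
  set H := Subgroup.centralizer ({t} : Set G) with hH
  have hstab : MulAction.stabilizer H P =
      (Subgroup.normalizer ((P : Subgroup G) : Set G)).subgroupOf H := by
    ext h
    rw [MulAction.mem_stabilizer_iff, Subgroup.mem_subgroupOf, Subgroup.smul_def,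
      Sylow.smul_eq_iff_mem_normalizer]
    exact Iff.rfl
  have h1 := MulAction.index_stabilizer H P
  rw [hstab] at h1
  rw [Subgroup.relIndex, h1]
  apply Set.ncard_le_ncard _ (Set.toFinite _)
  rintro Q ⟨h, rfl⟩
  show t • (h • P) = h • P
  have htP : t • P = P :=
    Sylow.smul_eq_iff_mem_normalizer.mpr (Subgroup.centralizer_le_normalizer _ ht)
  have hcomm : t * (h : G) = (h : G) * t :=
    Subgroup.mem_centralizer_iff.mp h.2 t (Set.mem_singleton t)
  rw [Subgroup.smul_def, ← mul_smul, hcomm, mul_smul, htP]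

/-- a simple group with a Sylow subgroup `P` of odd prime order `p` centralized by an
involution has no subgroup of index `p + 2` -/
theorem no_index_add_two [IsSimpleGroup G] (hG : ¬ (Nat.card G).Prime) (p : ℕ) [Fact p.Prime]
    (hp2 : p ≠ 2) (P : Sylow p G) (hP : Nat.card (P : Subgroup G) = p) (H : Subgroup G)
    (hH : H.index = p + 2) (c : G) (hc : c ∈ Subgroup.centralizer ((P : Subgroup G) : Set G))
    (hc2 : c * c = 1) (hc1 : c ≠ 1) : False := by
  classical
  have hpp : p.Prime := Fact.out
  have : Fintype (G ⧸ H) := Fintype.ofFinite _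
  have hcard : Fintype.card (G ⧸ H) = p + 2 := by
    rw [← hH, Subgroup.index, Nat.card_eq_fintype_card]
  have hHtop : H ≠ ⊤ := by
    intro h
    rw [h, Subgroup.index_top] at hH
    omega
  set φ := MulAction.toPermHom G (G ⧸ H) with hφ
  have hinj : Function.Injective φ := by
    rw [← MonoidHom.ker_eq_bot_iff, hφ, ← Subgroup.normalCore_eq_ker]
    rcases (H.normalCore_normal).eq_bot_or_eq_top with h | h
    · exact h
    · exact absurd (top_le_iff.mp (h ▸ Subgroup.normalCore_le H)) hHtop
  obtain ⟨g, hg, hg1⟩ := exists_mem_ne_one p (P : Subgroup G) hP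
  have hord : orderOf g = p := orderOf_eq_of_mem_of_card_prime hpp (P : Subgroup G) hP g hg hg1
  have hXp : (φ g) ^ p = 1 := by rw [← map_pow, ← hord, pow_orderOf_eq_one, map_one]
  have hZ2 : (φ c) ^ 2 = 1 := by rw [← map_pow, pow_two, hc2, map_one]
  have hcomm : Commute (φ c) (φ g) := by
    have : c * g = g * c := (Subgroup.mem_centralizer_iff.mp hc g hg).symm
    exact Commute.map (show Commute c g from this) _
  have hf1 : fixCard (φ g) % p = (p + 2) % p := by
    rw [← hcard]; exact fixCard_modEq' p (φ g) hXp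
  have hf2 : fixCard (φ g) ≤ p + 2 := by rw [← hcard]; exact fixCard_le _
  have hp3 : 3 ≤ p := by have := hpp.two_le; omega
  have hf3 : fixCard (φ g) ≠ p + 2 := by
    intro h
    have : φ g = 1 := eq_one_of_fixCard (φ g) (by rw [h, hcard])
    exact hg1 (hinj (by rw [this, map_one]))
  have hf4 : fixCard (φ g) = 2 := by
    have h2 : (p + 2) % p = 2 := by
      rw [Nat.add_mod_left]; exact Nat.mod_eq_of_lt (by omega)
    rw [h2] at hf1
    have hdm := Nat.div_add_mod (fixCard (φ g)) p
    rw [hf1] at hdm
    rcases Nat.eq_zero_or_pos (fixCard (φ g) / p) with hk | hk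
    · rw [hk] at hdm; omega
    · exfalso
      have : p * 1 ≤ p * (fixCard (φ g) / p) := Nat.mul_le_mul_left p hk
      omega
  have hM : (Finset.univ.filter (fun ω => φ g ω ≠ ω)).card = p := by
    have h1 : (Finset.univ.filter (fun ω => φ g ω = ω)).card +
        (Finset.univ.filter (fun ω => ¬ φ g ω = ω)).card = Fintype.card (G ⧸ H) := by
      rw [Finset.card_filter_add_card_filter_not]; rfl
    have h2 : (Finset.univ.filter (fun ω => φ g ω = ω)).card = 2 := hf4
    rw [h2, hcard] at h1
    have h3 : (Finset.univ.filter (fun ω => ¬ φ g ω = ω)).card = p := by omega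
    exact h3
  have hfix := fix_of_commute_pcycle p hp2 (φ g) (φ c) hXp hZ2 hcomm hM
  obtain ⟨k, hk⟩ := involution_fixed_mod_four hG (X := G ⧸ H) c hc2
  rw [ncard_fixed_eq_fixCard, Nat.card_eq_fintype_card, hcard] at hk
  have hk' : fixCard (φ c) + 4 * k = p + 2 := hk
  have hge : p ≤ fixCard (φ c) := by
    rw [← hM]
    apply Finset.card_le_card
    intro ω hω
    simp only [Finset.mem_filter, Finset.mem_univ, true_and] at hω ⊢
    exact hfix ω hω
  have hall : fixCard (φ c) = Fintype.card (G ⧸ H) := by rw [hcard]; omega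
  have : φ c = 1 := eq_one_of_fixCard (φ c) hall
  exact hc1 (hinj (by rw [this, map_one]))

omit [Finite G] in
/-- a subgroup generated by a central subgroup and an abelian subgroup is abelian -/
theorem le_centralizer_self_of (C P T : Subgroup G) [Finite C] (hP : P ≤ C) (hT : T ≤ C)
    (hC : C ≤ Subgroup.centralizer (P : Set G)) (hTc : ∀ a ∈ T, ∀ b ∈ T, a * b = b * a)
    (hcop : (Nat.card P).Coprime (Nat.card T)) (hcard : Nat.card C = Nat.card P * Nat.card T) :
    C ≤ Subgroup.centralizer (C : Set G) := by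
  have hsup : P ⊔ T = C := by
    apply Subgroup.eq_of_le_of_card_ge (sup_le hP hT)
    have h1 : Nat.card P ∣ Nat.card (P ⊔ T : Subgroup G) := Subgroup.card_dvd_of_le le_sup_left
    have h2 : Nat.card T ∣ Nat.card (P ⊔ T : Subgroup G) := Subgroup.card_dvd_of_le le_sup_right
    have h3 := hcop.mul_dvd_of_dvd_of_dvd h1 h2
    rw [hcard]
    haveI : Finite (P ⊔ T : Subgroup G) := Finite.of_injective (Subgroup.inclusion (sup_le hP hT))
      (Subgroup.inclusion_injective _)
    exact Nat.le_of_dvd Nat.card_pos h3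
  have hPT : P ≤ Subgroup.centralizer (T : Set G) :=
    Subgroup.le_centralizer_iff.mp (hT.trans hC)
  have hTT : T ≤ Subgroup.centralizer (T : Set G) := by
    intro a ha
    rw [Subgroup.mem_centralizer_iff]
    intro b hb
    exact hTc b hb a ha
  have hCT : C ≤ Subgroup.centralizer (T : Set G) := by
    rw [← hsup]; exact sup_le hPT hTT
  have h1 : T ≤ Subgroup.centralizer (C : Set G) := Subgroup.le_centralizer_iff.mp hCT
  have h2 : P ≤ Subgroup.centralizer (C : Set G) := Subgroup.le_centralizer_iff.mp hC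
  calc C = P ⊔ T := hsup.symm
    _ ≤ Subgroup.centralizer (C : Set G) := sup_le h2 h1

end Cfsg.Agent.Lib.Helper69.InvFix
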