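import Mathlib
import Cfsg.Agent.Lib.Helper69.InvFix

set_option autoImplicit false

/-!
# More tools for excluding simple groups of a given order

* `count_fixed`: class-size / fixed-point counting for a transitive action;
* `card_dvd_of_unique_fixed`: Burnside's lemma for a group all of whose non-identity elements
  have a unique fixed point;
* `conj_eq_inv_of_invol`, `inv_mul_mem_centralizer_of_invol`: involutions acting on a group of
  prime order;
* `two_group_false`: a 2-group argument.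
-/

namespace Cfsg.Agent.Lib.Helper69.InvFix

open Cfsg.Agent.Lib.Helper17 Cfsg.Agent.Lib.Helper69.Syl22

variable {G : Type*} [Group G] [Finite G]

/-- for a transitive action: `#Fix(x) * |x^G| = |X| * |x^G ∩ Stab(x₀)|` -/
theorem count_fixed {X : Type*} [MulAction G X] [MulAction.IsPretransitive G X] [Finite X]
    (x₀ : X) (x : G) :
    Nat.card (MulAction.fixedBy X x) * Nat.card {g : G // IsConj x g} =
      Nat.card X * Nat.card {g : G // IsConj x g ∧ g ∈ MulAction.stabilizer G x₀} := by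
  classical
  have : Fintype {g : G // IsConj x g} := Fintype.ofFinite _
  have : Fintype X := Fintype.ofFinite _
  have e1 : (Σ y : {g : G // IsConj x g}, MulAction.fixedBy X (y : G)) ≃
      (Σ c : X, {g : G // IsConj x g ∧ g • c = c}) :=
    { toFun := fun yc => ⟨yc.2.1, ⟨yc.1.1, yc.1.2, yc.2.2⟩⟩
      invFun := fun cg => ⟨⟨cg.2.1, cg.2.2.1⟩, ⟨cg.1, cg.2.2.2⟩⟩
      left_inv := fun _ => rfl
      right_inv := fun _ => rfl }
  have h1 : Nat.card (Σ y : {g : G // IsConj x g}, MulAction.fixedBy X (y : G)) =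
      Nat.card {g : G // IsConj x g} * Nat.card (MulAction.fixedBy X x) := by
    rw [Nat.card_sigma]
    have : ∀ y : {g : G // IsConj x g}, Nat.card (MulAction.fixedBy X (y : G)) =
        Nat.card (MulAction.fixedBy X x) := by
      rintro ⟨y, hy⟩
      obtain ⟨k, hk⟩ := isConj_iff.mp hy
      apply Nat.card_congr
      refine
        { toFun := fun c => ⟨k⁻¹ • c.1, ?_⟩
          invFun := fun c => ⟨k • c.1, ?_⟩
          left_inv := fun c => by simp
          right_inv := fun c => by simp }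
      · have hc : y • c.1 = c.1 := c.2
        rw [MulAction.mem_fixedBy, ← mul_smul]
        have : x * k⁻¹ = k⁻¹ * y := by rw [← hk]; group
        rw [this, mul_smul, hc]
      · have hc : x • c.1 = c.1 := c.2
        show y • k • c.1 = k • c.1
        rw [← mul_smul]
        have : y * k = k * x := by rw [← hk]; group
        rw [this, mul_smul, hc]
    simp only [this, Finset.sum_const, Finset.card_univ, smul_eq_mul, Nat.card_eq_fintype_card]
  have h2 : Nat.card (Σ c : X, {g : G // IsConj x g ∧ g • c = c}) =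
      Nat.card X * Nat.card {g : G // IsConj x g ∧ g ∈ MulAction.stabilizer G x₀} := by
    rw [Nat.card_sigma]
    have : ∀ c : X, Nat.card {g : G // IsConj x g ∧ g • c = c} =
        Nat.card {g : G // IsConj x g ∧ g ∈ MulAction.stabilizer G x₀} := by
      intro c
      obtain ⟨g, rfl⟩ := MulAction.exists_smul_eq G x₀ c
      apply Nat.card_congr
      refine
        { toFun := fun y => ⟨g⁻¹ * y.1 * g, ?_, ?_⟩
          invFun := fun y => ⟨g * y.1 * g⁻¹, ?_, ?_⟩
          left_inv := fun y => by ext; simp [mul_assoc]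
          right_inv := fun y => by ext; simp [mul_assoc] }
      · refine y.2.1.trans ?_
        exact isConj_iff.mpr ⟨g⁻¹, by simp [mul_assoc]⟩
      · rw [MulAction.mem_stabilizer_iff, mul_smul, mul_smul, y.2.2, inv_smul_smul]
      · refine y.2.1.trans ?_
        exact isConj_iff.mpr ⟨g, rfl⟩
      · have := y.2.2
        rw [MulAction.mem_stabilizer_iff] at this
        rw [mul_smul, mul_smul, inv_smul_smul, this]
    simp only [this, Finset.sum_const, Finset.card_univ, smul_eq_mul, Nat.card_eq_fintype_card]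
  rw [mul_comm, ← h1, ← h2]
  exact Nat.card_congr e1

/-- `count_fixed` for the action on Sylow subgroups -/
theorem count_fixed_sylow (p : ℕ) [Fact p.Prime] (P : Sylow p G) (x : G) :
    Set.ncard {Q : Sylow p G | x • Q = Q} * Nat.card {g : G // IsConj x g} =
      Nat.card (Sylow p G) * Nat.card {g : G // IsConj x g ∧
        g ∈ Subgroup.normalizer ((P : Subgroup G) : Set G)} := by
  have h := count_fixed (X := Sylow p G) P x
  rw [Sylow.stabilizer_eq_normalizer] at h
  have h' : Set.ncard {Q : Sylow p G | x • Q = Q} =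
      Nat.card (MulAction.fixedBy (Sylow p G) x) := rfl
  rw [h']
  exact h

/-- Burnside's lemma when every non-identity element has exactly one fixed point -/
theorem card_dvd_of_unique_fixed {R X : Type*} [Group R] [Finite R] [MulAction R X] [Finite X]
    (h : ∀ r : R, r ≠ 1 → Nat.card (MulAction.fixedBy X r) = 1) :
    Nat.card R ∣ Nat.card X + Nat.card R - 1 := by
  classical
  have : Fintype R := Fintype.ofFinite _
  have : Fintype X := Fintype.ofFinite _
  have : Fintype (Quotient (MulAction.orbitRel R X)) := Fintype.ofFinite _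
  have hB := MulAction.sum_card_fixedBy_eq_card_orbits_mul_card_group R X
  have hsum : (∑ g : R, Fintype.card (MulAction.fixedBy X g)) =
      Fintype.card X + (Fintype.card R - 1) := by
    rw [← Finset.add_sum_erase Finset.univ _ (Finset.mem_univ (1 : R))]
    congr 1
    · rw [← Nat.card_eq_fintype_card, ← Nat.card_eq_fintype_card]
      apply Nat.card_congr
      exact
        { toFun := fun c => c.1
          invFun := fun c => ⟨c, by simp⟩
          left_inv := fun _ => rfl
          right_inv := fun _ => rfl }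
    · rw [Finset.sum_eq_card_nsmul (b := 1)]
      · rw [Finset.card_erase_of_mem (Finset.mem_univ _), Finset.card_univ, smul_eq_mul, mul_one]
      · intro r hr
        rw [← Nat.card_eq_fintype_card]
        exact h r (Finset.ne_of_mem_erase hr)
  rw [hsum] at hB
  have hpos : 0 < Fintype.card R := Fintype.card_pos
  rw [Nat.card_eq_fintype_card, Nat.card_eq_fintype_card]
  have : Fintype.card X + Fintype.card R - 1 = Fintype.card X + (Fintype.card R - 1) := by omega
  rw [this, hB]
  exact Dvd.intro_left _ rfl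

/-- a `q`-subgroup `R` of `C(P)` has order dividing `n_p + |R| - 1` when the arithmetic forces
non-identity elements of `R` to fix exactly one Sylow `p`-subgroup -/
theorem card_dvd_of_le_centralizer [IsSimpleGroup G] (p q : ℕ) [Fact p.Prime] [Fact q.Prime]
    (P : Sylow p G) (hP : Nat.card (P : Subgroup G) = p) (R : Subgroup G)
    (hR : R ≤ Subgroup.centralizer ((P : Subgroup G) : Set G)) (hRq : IsPGroup q R)
    (hn1 : Nat.card (Sylow p G) ≠ 1)
    (harith : ∀ f, f ≤ Nat.card (Sylow p G) → f % p = 1 →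
      f % q = Nat.card (Sylow p G) % q → f = 1 ∨ f = Nat.card (Sylow p G)) :
    Nat.card R ∣ Nat.card (Sylow p G) + Nat.card R - 1 := by
  classical
  have : Fintype (Sylow p G) := Fintype.ofFinite _
  apply card_dvd_of_unique_fixed (R := R) (X := Sylow p G)
  intro r hr1
  have hr1' : (r : G) ≠ 1 := fun h => hr1 (Subtype.ext h)
  have hset : Nat.card (MulAction.fixedBy (Sylow p G) r) =
      Set.ncard {Q : Sylow p G | (r : G) • Q = Q} := rfl
  rw [hset]
  have hf1 := ncard_fixed_mod p P hP (r : G) (hR r.2)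
  have hf2 : Set.ncard {Q : Sylow p G | (r : G) • Q = Q} ≤ Nat.card (Sylow p G) := by
    rw [← Set.ncard_univ]
    exact Set.ncard_le_ncard (Set.subset_univ _) (Set.toFinite _)
  have hf3 : Set.ncard {Q : Sylow p G | (r : G) • Q = Q} % q = Nat.card (Sylow p G) % q := by
    obtain ⟨k, hk⟩ := hRq r
    rw [ncard_fixed_eq_fixCard, Nat.card_eq_fintype_card]
    apply fixCard_modEq q k
    rw [← map_pow]
    have : (r : G) ^ q ^ k = 1 := by
      have := congrArg Subtype.val hk
      simpa using this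
    rw [this, map_one]
  rcases harith _ hf2 hf1 hf3 with h | h
  · exact h
  · exfalso
    have huniv : {Q : Sylow p G | (r : G) • Q = Q} = Set.univ := by
      rw [Set.eq_univ_iff_ncard, h]
    have hker : MulAction.toPermHom G (Sylow p G) (r : G) = 1 := by
      apply Equiv.ext
      intro Q
      have : Q ∈ {Q : Sylow p G | (r : G) • Q = Q} := by rw [huniv]; exact Set.mem_univ Q
      exact this
    exact hr1' (toPermHom_sylow_injective p hn1 (by rw [hker, map_one]))

/-- an involution normalizing but not centralizing a group of prime order inverts it -/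
theorem conj_eq_inv_of_invol (p : ℕ) [Fact p.Prime] (P : Subgroup G) (hP : Nat.card P = p)
    (u : G) (hu : u ∈ Subgroup.normalizer (P : Set G)) (huu : u * u = 1)
    (huC : u ∉ Subgroup.centralizer (P : Set G)) : ∀ g ∈ P, u * g * u⁻¹ = g⁻¹ := by
  have hpp : p.Prime := Fact.out
  intro g hg
  have hcg : u * g * u⁻¹ ∈ P := (Subgroup.mem_normalizer_iff.mp hu g).mp hg
  have hcomm : g * (u * g * u⁻¹) = (u * g * u⁻¹) * g := by
    have hcyc : IsCyclic P := isCyclic_of_prime_card hP
    have := (IsCyclic.commGroup (α := P)).mul_comm ⟨g, hg⟩ ⟨u * g * u⁻¹, hcg⟩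
    exact congrArg Subtype.val this
  have huinv : u⁻¹ = u := inv_eq_of_mul_eq_one_left huu
  by_cases hb : g * (u * g * u⁻¹) = 1
  · exact eq_inv_of_mul_eq_one_right hb
  · exfalso
    apply huC
    have hbP : g * (u * g * u⁻¹) ∈ P := P.mul_mem hg hcg
    have hz := zpowers_eq_of_mem_of_card_prime hpp P hP _ hbP hb
    have hfix : u * (g * (u * g * u⁻¹)) = (g * (u * g * u⁻¹)) * u := by
      calc u * (g * (u * g * u⁻¹)) = u * g * u * g * u⁻¹ := by group
        _ = u * g * u⁻¹ * g * u := by rw [huinv]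
        _ = (g * (u * g * u⁻¹)) * u := by rw [hcomm]
    rw [Subgroup.mem_centralizer_iff]
    intro y hy
    have hy' : y ∈ Subgroup.zpowers (g * (u * g * u⁻¹)) := by rw [hz]; exact hy
    obtain ⟨k, rfl⟩ := Subgroup.mem_zpowers_iff.mp hy'
    exact ((show Commute u (g * (u * g * u⁻¹)) from hfix).zpow_right k).eq.symm

/-- two involutions inverting a group of prime order differ by an element centralizing it -/
theorem inv_mul_mem_centralizer_of_invol (p : ℕ) [Fact p.Prime] (P : Subgroup G)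
    (hP : Nat.card P = p) (u u' : G) (hu : u ∈ Subgroup.normalizer (P : Set G))
    (hu' : u' ∈ Subgroup.normalizer (P : Set G)) (huu : u * u = 1) (hu'u' : u' * u' = 1)
    (huC : u ∉ Subgroup.centralizer (P : Set G)) (hu'C : u' ∉ Subgroup.centralizer (P : Set G)) :
    u⁻¹ * u' ∈ Subgroup.centralizer (P : Set G) := by
  rw [Subgroup.mem_centralizer_iff]
  intro g hg
  have h1 := conj_eq_inv_of_invol p P hP u hu huu huC g hg
  have h2 := conj_eq_inv_of_invol p P hP u' hu' hu'u' hu'C g hg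
  have h3 : u' * g = g⁻¹ * u' := by
    calc u' * g = u' * g * u'⁻¹ * u' := by group
      _ = g⁻¹ * u' := by rw [h2]
  have h4 : u⁻¹ * g⁻¹ = g * u⁻¹ := by
    calc u⁻¹ * g⁻¹ = u⁻¹ * (u * g * u⁻¹) := by rw [h1]
      _ = g * u⁻¹ := by group
  calc g * (u⁻¹ * u') = g * u⁻¹ * u' := by group
    _ = u⁻¹ * g⁻¹ * u' := by rw [h4]
    _ = u⁻¹ * (g⁻¹ * u') := by group
    _ = u⁻¹ * (u' * g) := by rw [h3]
    _ = u⁻¹ * u' * g := by group

/-- arithmetic: a power of two dividing `2 ^ a * m` with `m` odd is at most `2 ^ a` -/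
theorem two_pow_le_of_dvd (k a m : ℕ) (hm : ¬ 2 ∣ m) (h : 2 ^ k ∣ 2 ^ a * m) : 2 ^ k ≤ 2 ^ a := by
  have hcop : Nat.Coprime (2 ^ k) m := (Nat.prime_two.coprime_iff_not_dvd.mpr hm).pow_left k
  exact Nat.le_of_dvd (by positivity) (hcop.dvd_of_dvd_mul_right h)

/-- a `2`-subgroup of a group of order `2 ^ a * m`, `m` odd, containing a subgroup of order
`2 ^ a` equals it -/
theorem eq_of_two_subgroup (K T L : Subgroup G) (a m : ℕ) (hm : ¬ 2 ∣ m)
    (hL : Nat.card L = 2 ^ a * m) (hKL : K ≤ L) (hK : IsPGroup 2 K) (hT : Nat.card T = 2 ^ a)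
    (hTK : T ≤ K) : K = T := by
  haveI : Fact (Nat.Prime 2) := ⟨Nat.prime_two⟩
  obtain ⟨k, hk⟩ := IsPGroup.iff_card.mp hK
  have h1 : Nat.card K ∣ Nat.card L := Subgroup.card_dvd_of_le hKL
  rw [hk, hL] at h1
  have h2 := two_pow_le_of_dvd k a m hm h1
  exact (Subgroup.eq_of_le_of_card_ge hTK (by rw [hk, hT]; exact h2)).symm

/-- structure of `C(P)` of order `2 ^ a * p`, `a ≤ 2`: it is abelian, and its involutions lie in
a subgroup `T` of order `2 ^ a` -/
theorem centralizer_struct (p : ℕ) [Fact p.Prime] (hp2 : p ≠ 2) (P : Subgroup G)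
    (hP : Nat.card P = p) (hPC : P ≤ Subgroup.centralizer (P : Set G)) (a : ℕ) (ha : a ≤ 2)
    (hC : Nat.card (Subgroup.centralizer (P : Set G)) = 2 ^ a * p) :
    ∃ T : Subgroup G, T ≤ Subgroup.centralizer (P : Set G) ∧ Nat.card T = 2 ^ a ∧
      Subgroup.centralizer (P : Set G) ≤
        Subgroup.centralizer ((Subgroup.centralizer (P : Set G) : Subgroup G) : Set G) ∧
      ∀ u ∈ Subgroup.centralizer (P : Set G), u * u = 1 → u ∈ T := by
  haveI : Fact (Nat.Prime 2) := ⟨Nat.prime_two⟩
  have hpp : p.Prime := Fact.out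
  have hodd : ¬ 2 ∣ p := by
    intro h
    exact hp2 ((Nat.prime_dvd_prime_iff_eq Nat.prime_two hpp).mp h).symm
  obtain ⟨K, hK⟩ := Sylow.exists_subgroup_card_pow_prime
    (G := Subgroup.centralizer (P : Set G)) 2 (n := a) (by rw [hC]; exact Dvd.intro _ rfl)
  set T : Subgroup G := K.map (Subgroup.subtype _) with hTdef
  have hT : T ≤ Subgroup.centralizer (P : Set G) := by
    rintro x ⟨y, -, rfl⟩
    exact y.2
  have hTa : Nat.card T = 2 ^ a := by
    rw [hTdef, Subgroup.card_map_of_injective (Subgroup.subtype_injective _), hK]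
  have hTcomm : ∀ x ∈ T, ∀ y ∈ T, x * y = y * x := by
    intro x hx y hy
    have hc : IsMulCommutative T := by
      interval_cases a
      · haveI : Subsingleton T := by
          rw [← Finite.card_le_one_iff_subsingleton, hTa]; norm_num
        exact ⟨⟨fun a b => Subsingleton.elim _ _⟩⟩
      · have hcyc : IsCyclic T := isCyclic_of_prime_card (p := 2) (by rw [hTa]; norm_num)
        exact ⟨⟨fun a b => (IsCyclic.commGroup (α := T)).mul_comm a b⟩⟩
      · exact IsPGroup.isMulCommutative_of_card_eq_prime_sq (p := 2) (G := T) hTa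
    exact congrArg Subtype.val (hc.is_comm.comm ⟨x, hx⟩ ⟨y, hy⟩)
  have hcomm : Subgroup.centralizer (P : Set G) ≤
      Subgroup.centralizer ((Subgroup.centralizer (P : Set G) : Subgroup G) : Set G) := by
    apply le_centralizer_self_of _ P T hPC hT le_rfl hTcomm
    · rw [hP, hTa]
      exact (Nat.Coprime.pow_left a (Nat.prime_two.coprime_iff_not_dvd.mpr hodd)).symm
    · rw [hC, hP, hTa, mul_comm]
  refine ⟨T, hT, hTa, hcomm, ?_⟩
  intro u hu hu2
  have hTp : IsPGroup 2 T := IsPGroup.of_card hTa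
  have hup : IsPGroup 2 (Subgroup.zpowers u) := by
    by_cases h1 : u = 1
    · apply IsPGroup.of_card (n := 0)
      rw [Nat.card_zpowers, h1, orderOf_one, pow_zero]
    · apply IsPGroup.of_card (n := 1)
      rw [Nat.card_zpowers, pow_one]
      exact orderOf_eq_prime (by rw [pow_two]; exact hu2) h1
  have hnorm : T ≤ Subgroup.normalizer ((Subgroup.zpowers u : Subgroup G) : Set G) := by
    refine le_trans ?_ (Subgroup.centralizer_le_normalizer _)
    intro x hx
    rw [Subgroup.mem_centralizer_iff]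
    intro b hb
    obtain ⟨k, rfl⟩ := Subgroup.mem_zpowers_iff.mp hb
    have h1 : u * x = x * u := Subgroup.mem_centralizer_iff.mp (hcomm (hT hx)) u hu
    exact ((show Commute u x from h1).zpow_left k).eq
  have hKp := IsPGroup.to_sup_of_normal_right' hTp hup hnorm
  have hle : T ⊔ Subgroup.zpowers u ≤ Subgroup.centralizer (P : Set G) :=
    sup_le hT (by rw [Subgroup.zpowers_le]; exact hu)
  have := eq_of_two_subgroup (T ⊔ Subgroup.zpowers u) T _ a p hodd hC hle hKp hTa le_sup_left
  rw [← this]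
  exact (le_sup_right : Subgroup.zpowers u ≤ T ⊔ Subgroup.zpowers u) (Subgroup.mem_zpowers u)

/-- a 2-group argument: if every involution of `C` has centralizer `N`, `T ≤ C` has order 4,
`T ≤ S₀ = S ∩ N` with `|S₀| = 8` and `S₀ ≠ S` for a Sylow 2-subgroup `S`, we get a
contradiction -/
theorem two_group_false (N C T S₀ : Subgroup G) (S : Sylow 2 G)
    (hcent : ∀ w ∈ C, orderOf w = 2 → Subgroup.centralizer ({w} : Set G) = N)
    (hT : T ≤ C) (hT4 : Nat.card T = 4) (hTS₀ : T ≤ S₀) (hS₀8 : Nat.card S₀ = 8)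
    (hS : S₀ ≤ (S : Subgroup G)) (hSN : (S : Subgroup G) ⊓ N = S₀)
    (hne : S₀ ≠ (S : Subgroup G)) : False := by
  haveI : Fact (Nat.Prime 2) := ⟨Nat.prime_two⟩
  -- an involution of T
  obtain ⟨t', ht'⟩ := exists_prime_orderOf_dvd_card' (G := T) 2 (by rw [hT4]; norm_num)
  set t : G := (t' : G) with htdef
  have htT : t ∈ T := t'.2
  have ht2 : orderOf t = 2 := by rw [htdef, Subgroup.orderOf_coe]; exact ht'
  have htt : t * t = 1 := by rw [← pow_two, ← ht2, pow_orderOf_eq_one]
  have ht1 : t ≠ 1 := by intro h1; rw [h1, orderOf_one] at ht2; omega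
  -- central involution z of S
  obtain ⟨z, hzS, hz2, hzc⟩ : ∃ z ∈ (S : Subgroup G), orderOf z = 2 ∧
      ∀ s ∈ (S : Subgroup G), s * z = z * s := by
    haveI : Nontrivial (S : Subgroup G) := by
      rw [← Finite.one_lt_card_iff_nontrivial]
      have h1 := Subgroup.card_dvd_of_le hS
      rw [hS₀8] at h1
      have := Nat.le_of_dvd Nat.card_pos h1
      omega
    have hcn := IsPGroup.center_nontrivial (S.2 : IsPGroup 2 (S : Subgroup G))
    have hcp : IsPGroup 2 (Subgroup.center (S : Subgroup G)) := S.2.to_subgroup _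
    obtain ⟨k, hk⟩ := IsPGroup.iff_card.mp hcp
    have hk0 : k ≠ 0 := by
      rintro rfl
      rw [pow_zero] at hk
      have := Finite.one_lt_card_iff_nontrivial.mpr hcn
      omega
    obtain ⟨z', hz'⟩ := exists_prime_orderOf_dvd_card' (G := Subgroup.center (S : Subgroup G)) 2
      (by rw [hk]; exact dvd_pow_self 2 hk0)
    refine ⟨((z' : (S : Subgroup G)) : G), (z' : (S : Subgroup G)).2, ?_, ?_⟩
    · rw [Subgroup.orderOf_coe, Subgroup.orderOf_coe]; exact hz'
    · intro s hs
      have := Subgroup.mem_center_iff.mp z'.2 ⟨s, hs⟩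
      exact congrArg Subtype.val this
  have hcent' : Subgroup.centralizer ({t} : Set G) = N := hcent t (hT htT) ht2
  have hzN : z ∈ N := by
    rw [← hcent', Subgroup.mem_centralizer_iff]
    intro g hg
    rw [Set.mem_singleton_iff] at hg
    rw [hg]
    exact hzc t (hS (hTS₀ htT))
  have hzC : z ∉ C := by
    intro hzC
    have h1 : Subgroup.centralizer ({z} : Set G) = N := hcent z hzC hz2
    have h2 : (S : Subgroup G) ≤ Subgroup.centralizer ({z} : Set G) := by
      intro s hs
      rw [Subgroup.mem_centralizer_iff]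
      intro g hg
      rw [Set.mem_singleton_iff] at hg
      rw [hg]
      exact (hzc s hs).symm
    rw [h1] at h2
    exact hne (by rw [← hSN]; exact (inf_eq_left.mpr h2))
  have hzS₀ : z ∈ S₀ := by rw [← hSN]; exact ⟨hzS, hzN⟩
  have hzT : z ∉ T := fun hz => hzC (hT hz)
  have hzz : z * z = 1 := by rw [← pow_two, ← hz2, pow_orderOf_eq_one]
  -- index two
  have hidx : (T.subgroupOf S₀).index = 2 := by
    have h1 := Subgroup.index_mul_card (T.subgroupOf S₀)
    rw [Nat.card_congr (Subgroup.subgroupOfEquivOfLe hTS₀).toEquiv, hT4, hS₀8] at h1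
    omega
  have hmul : ∀ a ∈ S₀, ∀ b ∈ S₀, a ∉ T → b ∉ T → a * b ∈ T := by
    intro a ha b hb haT hbT
    have := Subgroup.mul_mem_iff_of_index_two hidx (a := ⟨a, ha⟩) (b := ⟨b, hb⟩)
    simp only [Subgroup.mem_subgroupOf] at this
    exact this.mpr ⟨fun h => absurd h haT, fun h => absurd h hbT⟩
  -- T abelian
  have hTcomm : ∀ a ∈ T, ∀ b ∈ T, a * b = b * a := by
    intro a ha b hb
    have hc := IsPGroup.isMulCommutative_of_card_eq_prime_sq (p := 2) (G := T)
      (by rw [hT4]; norm_num)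
    exact congrArg Subtype.val (hc.is_comm.comm ⟨a, ha⟩ ⟨b, hb⟩)
  have hdec : ∀ a ∈ S₀, a ∈ T ∨ a * z ∈ T := by
    intro a ha
    by_cases haT : a ∈ T
    · exact Or.inl haT
    · exact Or.inr (hmul a ha z hzS₀ haT hzT)
  have hS₀S : S₀ ≤ (S : Subgroup G) := hS
  -- S₀ abelian
  have hkey : ∀ a ∈ S₀, ∀ τ ∈ T, a * τ = τ * a := by
    intro a ha τ hτ
    rcases hdec a ha with h1 | h1
    · exact hTcomm a h1 τ hτ
    · have h2 := hTcomm (a * z) h1 τ hτ
      have h3 := hzc τ (hS₀S (hTS₀ hτ))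
      calc a * τ = a * z * (z * τ) := by rw [mul_assoc, ← mul_assoc z z τ, hzz, one_mul]
        _ = a * z * (τ * z) := by rw [h3]
        _ = a * z * τ * z := (mul_assoc (a * z) τ z).symm
        _ = τ * (a * z) * z := by rw [h2]
        _ = τ * a := by rw [mul_assoc τ (a * z) z, mul_assoc a z z, hzz, mul_one]
  have hS₀comm : ∀ a ∈ S₀, ∀ b ∈ S₀, a * b = b * a := by
    intro a ha b hb
    rcases hdec b hb with h1 | h1
    · exact hkey a ha b h1
    · have h2 := hkey a ha (b * z) h1
      have h3 := hzc a (hS₀S ha)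
      calc a * b = a * (b * z) * z := by
            rw [mul_assoc a (b * z) z, mul_assoc b z z, hzz, mul_one]
        _ = b * z * a * z := by rw [h2]
        _ = b * (z * (a * z)) := by group
        _ = b * (z * (z * a)) := by rw [h3]
        _ = b * a := by rw [← mul_assoc z z a, hzz, one_mul]
  -- x
  have hlt : S₀.subgroupOf (S : Subgroup G) < ⊤ := by
    rw [lt_top_iff_ne_top]
    intro htop
    have h1 : (S : Subgroup G) ≤ S₀ := Subgroup.subgroupOf_eq_top.mp htop
    exact hne (le_antisymm hS h1)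
  haveI : Group.IsNilpotent (S : Subgroup G) := S.2.isNilpotent
  have hnc := Group.normalizerCondition_of_isNilpotent (G := (S : Subgroup G)) _ hlt
  obtain ⟨x₀', hx₀n, hx₀'⟩ := SetLike.exists_of_lt hnc
  set x₀ : G := (x₀' : G) with hx₀def
  have hx₀S : x₀ ∈ (S : Subgroup G) := x₀'.2
  have hx₀S₀ : x₀ ∉ S₀ := fun h => hx₀' (Subgroup.mem_subgroupOf.mpr h)
  have hnorm₀ : ∀ y ∈ S₀, x₀ * y * x₀⁻¹ ∈ S₀ := by
    intro y hy
    have := (Subgroup.mem_normalizer_iff.mp hx₀n ⟨y, hS₀S hy⟩).mp (Subgroup.mem_subgroupOf.mpr hy)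
    exact Subgroup.mem_subgroupOf.mp this
  have hnormpow : ∀ n : ℕ, ∀ y ∈ S₀, x₀ ^ n * y * (x₀ ^ n)⁻¹ ∈ S₀ := by
    intro n
    induction n with
    | zero => intro y hy; simpa using hy
    | succ n ih =>
      intro y hy
      have := hnorm₀ _ (ih y hy)
      have e : x₀ ^ (n + 1) * y * (x₀ ^ (n + 1))⁻¹ = x₀ * (x₀ ^ n * y * (x₀ ^ n)⁻¹) * x₀⁻¹ := by
        rw [pow_succ']; group
      rw [e]; exact this
  obtain ⟨m, hm⟩ := (S.2 : IsPGroup 2 (S : Subgroup G)) x₀'
  have hx₀pow : x₀ ^ 2 ^ m = 1 := by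
    have := congrArg Subtype.val hm
    simpa using this
  have hex : ∃ j, x₀ ^ 2 ^ j ∈ S₀ := ⟨m, by rw [hx₀pow]; exact Subgroup.one_mem _⟩
  classical
  set j₀ := Nat.find hex with hj₀
  have hj₀spec : x₀ ^ 2 ^ j₀ ∈ S₀ := Nat.find_spec hex
  have hj₀pos : j₀ ≠ 0 := by
    intro h0
    rw [h0, pow_zero, pow_one] at hj₀spec
    exact hx₀S₀ hj₀spec
  set x : G := x₀ ^ 2 ^ (j₀ - 1) with hxdef
  have hxS₀ : x ∉ S₀ := Nat.find_min hex (by omega : j₀ - 1 < j₀)
  have hxx : x * x ∈ S₀ := by
    have e : 2 ^ j₀ = 2 ^ (j₀ - 1) + 2 ^ (j₀ - 1) := by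
      obtain ⟨i, hi⟩ : ∃ i, j₀ = i + 1 := ⟨j₀ - 1, by omega⟩
      rw [hi, Nat.add_sub_cancel, pow_succ]; ring
    have : x * x = x₀ ^ 2 ^ j₀ := by
      rw [hxdef, ← pow_add, ← e]
    rw [this]; exact hj₀spec
  have hxS : x ∈ (S : Subgroup G) := Subgroup.pow_mem _ hx₀S _
  have hxnorm : ∀ y ∈ S₀, x * y * x⁻¹ ∈ S₀ := hnormpow _
  have hxN : x ∉ N := fun hx => hxS₀ (by rw [← hSN]; exact ⟨hxS, hx⟩)
  -- x fixes no involution of T
  have hfix : ∀ w ∈ T, w ≠ 1 → w * w = 1 → x * w * x⁻¹ = w → False := by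
    intro w hw hw1 hww hxw
    have hw2 : orderOf w = 2 := orderOf_eq_prime (by rw [pow_two]; exact hww) hw1
    have hc : Subgroup.centralizer ({w} : Set G) = N := hcent w (hT hw) hw2
    apply hxN
    rw [← hc, Subgroup.mem_centralizer_iff]
    intro g hg
    rw [Set.mem_singleton_iff] at hg
    rw [hg]
    have : x * w = w * x := by
      calc x * w = x * w * x⁻¹ * x := by group
        _ = w * x := by rw [hxw]
    exact this.symm
  have hK : ∀ y ∈ T, y ≠ 1 → x * y * x⁻¹ ≠ y ∧ x * y * x⁻¹ ≠ y⁻¹ := by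
    intro y hy hy1
    have hy4 : y ^ 4 = 1 := by
      have h1 : (⟨y, hy⟩ : T) ^ Nat.card T = 1 := pow_card_eq_one'
      rw [hT4] at h1
      have := congrArg Subtype.val h1
      simpa using this
    by_cases hyy : y * y = 1
    · have hinv : y⁻¹ = y := inv_eq_of_mul_eq_one_left hyy
      rw [hinv]
      exact ⟨fun h => hfix y hy hy1 hyy h, fun h => hfix y hy hy1 hyy h⟩
    · have hw : y * y ∈ T := Subgroup.mul_mem _ hy hy
      have hww : (y * y) * (y * y) = 1 := by
        rw [← pow_two, ← pow_two, ← pow_mul]; exact hy4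
      have hconj : ∀ v : G, x * (v * v) * x⁻¹ = (x * v * x⁻¹) * (x * v * x⁻¹) := fun v => by
        group
      constructor
      · intro h1
        apply hfix (y * y) hw hyy hww
        rw [hconj, h1]
      · intro h1
        apply hfix (y * y) hw hyy hww
        rw [hconj, h1]
        have : y⁻¹ * y⁻¹ = (y * y)⁻¹ := by group
        rw [this]
        exact inv_eq_of_mul_eq_one_left hww
  have hβ : ∀ y ∈ T, y ≠ 1 → y * (x * y * x⁻¹) ∉ T := by
    intro y hy hy1 hmem
    obtain ⟨hK1, hK2⟩ := hK y hy hy1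
    have hyS₀ : y ∈ S₀ := hTS₀ hy
    have hcS₀ : x * y * x⁻¹ ∈ S₀ := hxnorm y hyS₀
    have hb1 : y * (x * y * x⁻¹) ≠ 1 := by
      intro h1
      apply hK2
      exact (eq_inv_of_mul_eq_one_right h1)
    have hbfix : x * (y * (x * y * x⁻¹)) * x⁻¹ = y * (x * y * x⁻¹) := by
      have h1 : x * (y * (x * y * x⁻¹)) * x⁻¹ = (x * y * x⁻¹) * ((x * x) * y * (x * x)⁻¹) := by
        group
      have h2 : (x * x) * y * (x * x)⁻¹ = y := by
        rw [hS₀comm (x * x) hxx y hyS₀]; group
      rw [h1, h2]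
      exact hS₀comm _ hcS₀ y hyS₀
    exact (hK _ hmem hb1).1 hbfix
  -- a third element of T
  obtain ⟨y, hyT, hy1, hyt⟩ : ∃ y ∈ T, y ≠ 1 ∧ y ≠ t := by
    by_contra hcon
    have hsub : (T : Set G) ⊆ {1, t} := by
      intro y hy
      by_cases hy1 : y = 1
      · left; exact hy1
      · right
        by_contra hyt
        exact hcon ⟨y, hy, hy1, hyt⟩
    have h1 : Nat.card T = (T : Set G).ncard := Nat.card_coe_set_eq (T : Set G)
    have h2 := Set.ncard_le_ncard hsub (Set.toFinite _)
    have h3 : ({1, t} : Set G).ncard ≤ 2 := by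
      have := Set.ncard_insert_le (1 : G) {t}
      rw [Set.ncard_singleton] at this
      exact this
    omega
  have hty1 : t * y ≠ 1 := by
    intro h1
    apply hyt
    have : y = t⁻¹ := eq_inv_of_mul_eq_one_right h1
    rw [this]; exact inv_eq_of_mul_eq_one_left htt
  have h1 := hβ t htT ht1
  have h2 := hβ y hyT hy1
  have h3 := hβ (t * y) (Subgroup.mul_mem _ htT hyT) hty1
  apply h3
  have htS₀ := hTS₀ htT
  have hyS₀ := hTS₀ hyT
  have e : t * y * (x * (t * y) * x⁻¹) = (t * (x * t * x⁻¹)) * (y * (x * y * x⁻¹)) := by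
    have hc := hS₀comm y hyS₀ (x * t * x⁻¹) (hxnorm t htS₀)
    calc t * y * (x * (t * y) * x⁻¹) = t * (y * (x * t * x⁻¹)) * (x * y * x⁻¹) := by group
      _ = t * ((x * t * x⁻¹) * y) * (x * y * x⁻¹) := by rw [hc]
      _ = _ := by group
  rw [e]
  exact hmul _ (Subgroup.mul_mem _ htS₀ (hxnorm t htS₀)) _
    (Subgroup.mul_mem _ hyS₀ (hxnorm y hyS₀)) h1 h2

/-- a 2-subgroup `T` of `N` lies in a Sylow 2-subgroup `S₀` of `N`, which is `S ∩ N` for a
Sylow 2-subgroup `S` of `G` -/
theorem exists_sylow_chain (N T : Subgroup G) (hTN : T ≤ N) (hT : IsPGroup 2 T) (b m : ℕ)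
    (hm : ¬ 2 ∣ m) (hN : Nat.card N = 2 ^ b * m) :
    ∃ (S₀ : Subgroup G) (S : Sylow 2 G), T ≤ S₀ ∧ S₀ ≤ N ∧ Nat.card S₀ = 2 ^ b ∧
      S₀ ≤ (S : Subgroup G) ∧ (S : Subgroup G) ⊓ N = S₀ := by
  haveI : Fact (Nat.Prime 2) := ⟨Nat.prime_two⟩
  have hT' : IsPGroup 2 (T.subgroupOf N) :=
    hT.of_equiv (Subgroup.subgroupOfEquivOfLe hTN).symm
  obtain ⟨S₀', hS₀'⟩ := hT'.exists_le_sylow
  set S₀ : Subgroup G := (S₀' : Subgroup N).map N.subtype with hS₀def
  have hS₀N : S₀ ≤ N := by
    rintro x ⟨y, -, rfl⟩; exact y.2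
  have hTS₀ : T ≤ S₀ := by
    intro τ hτ
    exact ⟨⟨τ, hTN hτ⟩, hS₀' (Subgroup.mem_subgroupOf.mpr hτ), rfl⟩
  have hS₀8 : Nat.card S₀ = 2 ^ b := by
    rw [hS₀def, Subgroup.card_map_of_injective (Subgroup.subtype_injective _)]
    exact card_sylow_eq_of_card_eq 2 b m hN hm S₀'
  have hS₀p : IsPGroup 2 S₀ := IsPGroup.of_card hS₀8
  obtain ⟨S, hS⟩ := hS₀p.exists_le_sylow
  refine ⟨S₀, S, hTS₀, hS₀N, hS₀8, hS, ?_⟩
  exact eq_of_two_subgroup ((S : Subgroup G) ⊓ N) S₀ N b m hm hN inf_le_right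
    (S.2.to_le inf_le_left) hS₀8 (le_inf hS hS₀N)

end Cfsg.Agent.Lib.Helper69.InvFix
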